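import Mathlib
import Cfsg.Agent.Lib.Helper99.C64.Defs

/-!
# C64 package [BAD3]: `diag(ω, ω, ω, 1)` (helper82)
-/

set_option autoImplicit false

namespace Cfsg.Agent.Lib.Helper82.C64

open Matrix Cfsg.Agent.Lib.Helper99.C64

universe u

/-- [BAD3] -/
theorem pkgBad3 : PkgBad3.{u} := by
  intro F _ _ p _ _ hF hp3
  classical
  -- a primitive cube root of unity
  have hcard : Nat.card Fˣ = p - 1 := by
    rw [Nat.card_eq_fintype_card, Fintype.card_units, hF]
  have h3 : 3 ∣ Nat.card Fˣ := by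
    rw [hcard]; omega
  haveI : Fact (Nat.Prime 3) := ⟨Nat.prime_three⟩
  obtain ⟨u, hu⟩ := exists_prime_orderOf_dvd_card' 3 h3
  obtain ⟨ω, hω⟩ : ∃ ω : F, ω = (u : F) := ⟨_, rfl⟩
  have hω3 : ω ^ 3 = 1 := by
    rw [hω, ← Units.val_pow_eq_pow_val, ← hu, pow_orderOf_eq_one, Units.val_one]
  have hω1 : ω ≠ 1 := by
    intro h
    have : u = 1 := Units.ext (by rw [← hω, h, Units.val_one])
    rw [this, orderOf_one] at hu
    omega
  have hω2 : ω ^ 2 + ω + 1 = 0 := by
    have h : (ω - 1) * (ω ^ 2 + ω + 1) = 0 := by linear_combination hω3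
    rcases mul_eq_zero.mp h with h | h
    · exact absurd (sub_eq_zero.mp h) hω1
    · exact h
  have hmul : (Matrix.diagonal ![ω, ω, ω, 1] : M4 F) * Matrix.diagonal ![ω ^ 2, ω ^ 2, ω ^ 2, 1]
      = 1 := by
    rw [Matrix.diagonal_mul_diagonal, ← Matrix.diagonal_one]
    congr 1
    funext i
    fin_cases i
    · simpa using (by linear_combination hω3 : ω * ω ^ 2 = 1)
    · simpa using (by linear_combination hω3 : ω * ω ^ 2 = 1)
    · simpa using (by linear_combination hω3 : ω * ω ^ 2 = 1)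
    · simp
  have hmul' : (Matrix.diagonal ![ω ^ 2, ω ^ 2, ω ^ 2, 1] : M4 F) * Matrix.diagonal ![ω, ω, ω, 1]
      = 1 := by
    rw [Matrix.diagonal_mul_diagonal, ← Matrix.diagonal_one]
    congr 1
    funext i
    fin_cases i
    · simpa using (by linear_combination hω3 : ω ^ 2 * ω = 1)
    · simpa using (by linear_combination hω3 : ω ^ 2 * ω = 1)
    · simpa using (by linear_combination hω3 : ω ^ 2 * ω = 1)
    · simp
  obtain ⟨x, hx⟩ : ∃ x : GL (Fin 4) F, x = ⟨Matrix.diagonal ![ω, ω, ω, 1],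
      Matrix.diagonal ![ω ^ 2, ω ^ 2, ω ^ 2, 1], hmul, hmul'⟩ := ⟨_, rfl⟩
  have hxv : (x : M4 F) = Matrix.diagonal ![ω, ω, ω, 1] := by rw [hx]
  have hxi : ((x⁻¹ : GL (Fin 4) F) : M4 F) = Matrix.diagonal ![ω ^ 2, ω ^ 2, ω ^ 2, 1] := by
    rw [hx]; rfl
  refine ⟨x, ?_, ?_, ?_, ?_⟩
  · change x ∈ Cfsg.Geo.specialLinear (Fin 4) F
    rw [Cfsg.Geo.specialLinear, MonoidHom.mem_ker]
    apply Units.ext
    rw [Matrix.GeneralLinearGroup.val_det_apply, hxv, Matrix.det_diagonal, Fin.prod_univ_four]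
    simp only [Matrix.cons_val_zero, Matrix.cons_val_one, Matrix.cons_val_two,
      Matrix.cons_val_three, Matrix.head_cons, Matrix.tail_cons, Units.val_one]
    linear_combination hω3
  · apply Units.ext
    rw [Units.val_pow_eq_pow_val, hxv, Matrix.diagonal_pow, Units.val_one, ← Matrix.diagonal_one]
    congr 1
    funext i
    fin_cases i
    · simpa using hω3
    · simpa using hω3
    · simpa using hω3
    · simp
  · rintro ⟨z, hz⟩
    rw [hxv] at hz
    have h0 := congrFun (congrFun hz 0) 0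
    have h3 := congrFun (congrFun hz 3) 3
    simp at h0 h3
    exact hω1 (h0.trans h3.symm)
  · rw [hxv, hxi, Matrix.trace_diagonal, Matrix.trace_diagonal, Fin.sum_univ_four,
      Fin.sum_univ_four]
    simp only [Matrix.cons_val_zero, Matrix.cons_val_one, Matrix.cons_val_two,
      Matrix.cons_val_three, Matrix.head_cons, Matrix.tail_cons]
    linear_combination 9 * hω3 + 3 * hω2
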