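import Mathlib
import Cfsg.Agent.Lib.Helper99.C64.Defs

/-!
# C64 package [BAD5]: `companion(X^2 - t X + 1) ⊕ 1 ⊕ 1` with `t^2 + t - 1 = 0` (helper82)
-/

set_option autoImplicit false

namespace Cfsg.Agent.Lib.Helper82.C64

open Matrix Cfsg.Agent.Lib.Helper99.C64

universe u

/-- `2` has order `4` modulo `5`. -/
theorem orderOf_two_zmod5 : orderOf (2 : ZMod 5) = 4 := by
  refine (orderOf_eq_iff (by norm_num)).mpr ⟨by decide, ?_⟩
  intro m hm hm0
  interval_cases m <;> decide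

/-- `3` has order `4` modulo `5`. -/
theorem orderOf_three_zmod5 : orderOf (3 : ZMod 5) = 4 := by
  refine (orderOf_eq_iff (by norm_num)).mpr ⟨by decide, ?_⟩
  intro m hm hm0
  interval_cases m <;> decide

/-- A root of `t^2 + t - 1` in `F_p`, `p ≡ 1 (mod 4)`, `p ≡ ±1 (mod 5)`. -/
theorem exists_golden {F : Type u} [Field F] (p : ℕ) [Fact p.Prime] [CharP F p]
    (hp4 : p % 4 = 1) (hp5 : p ≠ 5) (hord : orderOf (p : ZMod 5) ≠ 4) :
    ∃ t : F, t ^ 2 + t - 1 = 0 := by
  have hp2 : p ≠ 2 := by rintro rfl; omega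
  have hpp : p.Prime := Fact.out
  have h2 : (2 : F) ≠ 0 := by
    intro h
    have h' : ((2 : ℕ) : F) = 0 := by exact_mod_cast h
    rw [CharP.cast_eq_zero_iff F p] at h'
    exact hp2 ((Nat.prime_dvd_prime_iff_eq hpp Nat.prime_two).mp h')
  have hsq5 : IsSquare ((p : ℕ) : ZMod 5) := by
    have hcases : p % 5 = 1 ∨ p % 5 = 4 := by
      have hp0 : p % 5 ≠ 0 := by
        intro h0
        have h5 : 5 ∣ p := Nat.dvd_of_mod_eq_zero h0
        exact hp5 ((Nat.prime_dvd_prime_iff_eq (by norm_num) hpp).mp h5).symm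
      have h2' : p % 5 ≠ 2 := by
        intro h; apply hord
        have : (p : ZMod 5) = 2 := by
          rw [← ZMod.natCast_mod, h]; rfl
        rw [this]; exact orderOf_two_zmod5
      have h3' : p % 5 ≠ 3 := by
        intro h; apply hord
        have : (p : ZMod 5) = 3 := by
          rw [← ZMod.natCast_mod, h]; rfl
        rw [this]; exact orderOf_three_zmod5
      omega
    rcases hcases with h | h
    · have : (p : ZMod 5) = 1 := by rw [← ZMod.natCast_mod, h]; rfl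
      rw [this]; exact ⟨1, by decide⟩
    · have : (p : ZMod 5) = 4 := by rw [← ZMod.natCast_mod, h]; rfl
      rw [this]; exact ⟨2, by decide⟩
  haveI : Fact (Nat.Prime 5) := ⟨by norm_num⟩
  have hsq : IsSquare ((5 : ℕ) : ZMod p) :=
    (ZMod.exists_sq_eq_prime_iff_of_mod_four_eq_one hp4 (by norm_num)).mpr hsq5
  obtain ⟨s0, hs0⟩ := hsq
  obtain ⟨s, hs⟩ : ∃ s : F, s * s = 5 := by
    refine ⟨ZMod.castHom (dvd_refl p) F s0, ?_⟩
    rw [← map_mul, ← hs0, map_natCast]
    norm_num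
  refine ⟨(s - 1) / 2, ?_⟩
  field_simp
  linear_combination hs

/-- [BAD5] -/
theorem pkgBad5 : PkgBad5.{u} := by
  intro F _ _ p _ _ hF hp4 hp5 hord
  classical
  obtain ⟨t, ht2⟩ := exists_golden (F := F) p hp4 hp5 hord
  obtain ⟨A, hA⟩ : ∃ A : M4 F, A = !![0, -1, 0, 0; 1, t, 0, 0; 0, 0, 1, 0; 0, 0, 0, 1] :=
    ⟨_, rfl⟩
  obtain ⟨B, hB⟩ : ∃ B : M4 F, B = !![t, 1, 0, 0; -1, 0, 0, 0; 0, 0, 1, 0; 0, 0, 0, 1] :=
    ⟨_, rfl⟩
  have hAB : A * B = 1 := by
    rw [hA, hB]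
    ext i j
    fin_cases i <;> fin_cases j <;> simp [Matrix.mul_apply, Fin.sum_univ_four]
  have hBA : B * A = 1 := by
    rw [hA, hB]
    ext i j
    fin_cases i <;> fin_cases j <;> simp [Matrix.mul_apply, Fin.sum_univ_four]
  obtain ⟨x, hx⟩ : ∃ x : GL (Fin 4) F, x = ⟨A, B, hAB, hBA⟩ := ⟨_, rfl⟩
  have hxv : (x : M4 F) = A := by rw [hx]
  have hxi : ((x⁻¹ : GL (Fin 4) F) : M4 F) = B := by rw [hx]; rfl
  have hA2 : A * A = !![-1, -t, 0, 0; t, t ^ 2 - 1, 0, 0; 0, 0, 1, 0; 0, 0, 0, 1] := by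
    rw [hA]
    ext i j
    fin_cases i <;> fin_cases j <;> simp [Matrix.mul_apply, Fin.sum_univ_four] <;> ring
  have hA4 : (A * A) * (A * A) = B := by
    rw [hA2, hB]
    ext i j
    fin_cases i <;> fin_cases j <;> simp [Matrix.mul_apply, Fin.sum_univ_four]
    all_goals first
      | linear_combination (-1 : F) * ht2
      | linear_combination (-(t - 1)) * ht2
      | linear_combination (t - 1) * ht2
      | linear_combination (t ^ 2 - t - 1) * ht2
  have hA5 : A ^ 5 = 1 := by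
    have e : A ^ 5 = (A * A) * (A * A) * A := by
      rw [pow_succ, pow_succ, pow_succ, pow_succ, pow_one]
      simp only [mul_assoc]
    rw [e, hA4, hBA]
  refine ⟨x, ?_, ?_, ?_, t, ht2, ?_, ?_⟩
  · change x ∈ Cfsg.Geo.specialLinear (Fin 4) F
    rw [Cfsg.Geo.specialLinear, MonoidHom.mem_ker]
    apply Units.ext
    rw [Matrix.GeneralLinearGroup.val_det_apply, hxv, hA, Matrix.det_succ_row_zero]
    simp [Fin.sum_univ_succ, Matrix.det_fin_three, Fin.succAbove, Matrix.submatrix]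
  · apply Units.ext
    rw [Units.val_pow_eq_pow_val, hxv, hA5, Units.val_one]
  · rintro ⟨z, hz⟩
    rw [hxv, hA] at hz
    have h01 := congrFun (congrFun hz 0) 1
    simp at h01
  · rw [hxv, hA]
    simp [Matrix.trace, Fin.sum_univ_four]
    ring
  · rw [hxi, hB]
    simp [Matrix.trace, Fin.sum_univ_four]
    ring
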