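import Mathlib
import Cfsg.Agent.Lib.Helper99.C64.Defs
import Cfsg.Agent.Lib.Helper40.Semisimple

/-!
# C64 (S6000), package [POS3] (helper82)

`p ≡ 2 (mod 3)`: elements of order 3 of `PSL_4(p)` are conjugate into `N(R0)`.
-/

set_option autoImplicit false

namespace Cfsg.Agent.Lib.Helper82.C64

open Matrix Polynomial Cfsg.Agent.Lib.Helper99.C64

universe u v

section endo

variable {K : Type u} [Field K] {V : Type v} [AddCommGroup V] [Module K V]
  [FiniteDimensional K V]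

/-- Every monic divisor of the characteristic polynomial of an endomorphism of order 3 is
a product of powers of `X - 1` and `X ^ 2 + X + 1` (the latter assumed irreducible). -/
theorem pos3_factor (hQ : Irreducible (X ^ 2 + X + 1 : K[X])) (f : Module.End K V)
    (hf3 : f ^ 3 = 1) :
    ∀ (n : ℕ) (q : K[X]), q.Monic → q.natDegree = n → q ∣ f.charpoly →
      ∃ i j : ℕ, q = (X - 1) ^ i * (X ^ 2 + X + 1) ^ j := by
  have hL : Irreducible (X - 1 : K[X]) := by simpa using irreducible_X_sub_C (1 : K)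
  have hfac : (X - 1 : K[X]) * (X ^ 2 + X + 1) = X ^ 3 - 1 := by ring
  have key : ∀ π : K[X], Irreducible π → π ∣ f.charpoly → π ∣ (X ^ 3 - 1 : K[X]) := by
    intro π hπ hdvd
    obtain ⟨v, hv, h0⟩ := Cfsg.Agent.Lib.Helper40.exists_ne_zero_aeval_eq_zero f π hπ hdvd
    refine (Cfsg.Agent.Lib.Helper40.aeval_eq_zero_iff_dvd f v π hπ hv h0 (X ^ 3 - 1)).1 ?_
    simp [hf3]
  intro n
  induction n using Nat.strong_induction_on with
  | _ n ih =>
    intro q hqm hqd hq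
    by_cases hq1 : q = 1
    · exact ⟨0, 0, by simp [hq1]⟩
    have hnu : ¬ IsUnit q := fun hu => hq1 (hqm.isUnit_iff.1 hu)
    obtain ⟨π, hπ, hπq⟩ := WfDvdMonoid.exists_irreducible_factor hnu hqm.ne_zero
    have hπ3 : π ∣ (X - 1 : K[X]) * (X ^ 2 + X + 1) := by
      rw [hfac]
      exact key π hπ (hπq.trans hq)
    have step : ∀ r : K[X], r.Monic → 0 < r.natDegree → r ∣ q →
        ∃ q' : K[X], q = r * q' ∧ q'.Monic ∧ q'.natDegree < n ∧ q' ∣ f.charpoly := by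
      intro r hrm hrd hrq
      obtain ⟨q', rfl⟩ := hrq
      have hq'm : q'.Monic := hrm.of_mul_monic_left hqm
      refine ⟨q', rfl, hq'm, ?_, (Dvd.intro_left r rfl).trans hq⟩
      rw [hrm.natDegree_mul hq'm] at hqd
      omega
    rcases hπ.prime.dvd_or_dvd hπ3 with h | h
    · have hdvd : (X - 1 : K[X]) ∣ q := ((hπ.associated_of_dvd hL h).symm.dvd).trans hπq
      have hm : (X - 1 : K[X]).Monic := by simpa using monic_X_sub_C (1 : K)
      have hd : 0 < (X - 1 : K[X]).natDegree := by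
        have : (X - 1 : K[X]).natDegree = 1 := by simpa using natDegree_X_sub_C (1 : K)
        omega
      obtain ⟨q', hq', hq'm, hq'd, hq'χ⟩ := step _ hm hd hdvd
      obtain ⟨i, j, hij⟩ := ih _ hq'd q' hq'm rfl hq'χ
      exact ⟨i + 1, j, by rw [hq', hij]; ring⟩
    · have hdvd : (X ^ 2 + X + 1 : K[X]) ∣ q := ((hπ.associated_of_dvd hQ h).symm.dvd).trans hπq
      have hm : (X ^ 2 + X + 1 : K[X]).Monic := by
        rw [← cyclotomic_three]
        exact cyclotomic.monic 3 K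
      have hd : 0 < (X ^ 2 + X + 1 : K[X]).natDegree := by
        rw [← cyclotomic_three, natDegree_cyclotomic]
        decide
      obtain ⟨q', hq', hq'm, hq'd, hq'χ⟩ := step _ hm hd hdvd
      obtain ⟨i, j, hij⟩ := ih _ hq'd q' hq'm rfl hq'χ
      exact ⟨i, j + 1, by rw [hq', hij]; ring⟩

/-- The characteristic polynomial of an endomorphism of order 3 of a 4-dimensional space,
when `X ^ 2 + X + 1` is irreducible: it is determined by whether `f ^ 2 + f + 1 = 0`. -/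
theorem pos3_charpoly (hQ : Irreducible (X ^ 2 + X + 1 : K[X])) (h3 : (3 : K) ≠ 0)
    (hV : Module.finrank K V = 4) (f : Module.End K V) (hf3 : f ^ 3 = 1) (hf1 : f ≠ 1) :
    (aeval f (X ^ 2 + X + 1 : K[X]) = 0 → f.charpoly = (X ^ 2 + X + 1) ^ 2) ∧
    (aeval f (X ^ 2 + X + 1 : K[X]) ≠ 0 → f.charpoly = (X - 1) ^ 2 * (X ^ 2 + X + 1)) := by
  have hL : Irreducible (X - 1 : K[X]) := by simpa using irreducible_X_sub_C (1 : K)
  have hfac : (X - 1 : K[X]) * (X ^ 2 + X + 1) = X ^ 3 - 1 := by ring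
  have hLm : (X - 1 : K[X]).Monic := by simpa using monic_X_sub_C (1 : K)
  have hLd : (X - 1 : K[X]).natDegree = 1 := by simpa using natDegree_X_sub_C (1 : K)
  have hQm : (X ^ 2 + X + 1 : K[X]).Monic := by
    rw [← cyclotomic_three]
    exact cyclotomic.monic 3 K
  have hQd : (X ^ 2 + X + 1 : K[X]).natDegree = 2 := by
    rw [← cyclotomic_three, natDegree_cyclotomic]
    decide
  have hnd : ¬ (X - 1 : K[X]) ∣ (X ^ 2 + X + 1) := by
    intro h
    have h' : (X - C (1 : K)) ∣ (X ^ 2 + X + 1 : K[X]) := by simpa using h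
    rw [dvd_iff_isRoot] at h'
    have h'' : (1 : K) ^ 2 + 1 + 1 = 0 := by simpa [IsRoot] using h'
    apply h3
    linear_combination h''
  have hcop : IsCoprime (X - 1 : K[X]) (X ^ 2 + X + 1) := (hL.coprime_iff_not_dvd).2 hnd
  have h3z : aeval f (X ^ 3 - 1 : K[X]) = 0 := by simp [hf3]
  obtain ⟨i, j, hij⟩ := pos3_factor hQ f hf3 _ f.charpoly (LinearMap.charpoly_monic f) rfl
    dvd_rfl
  have hdeg : i + 2 * j = 4 := by
    have h1 : f.charpoly.natDegree = 4 := by rw [LinearMap.charpoly_natDegree, hV]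
    rw [hij, (hLm.pow i).natDegree_mul (hQm.pow j), hLm.natDegree_pow, hQm.natDegree_pow, hLd,
      hQd] at h1
    omega
  have hCH : aeval f f.charpoly = 0 := LinearMap.aeval_self_charpoly f
  -- the case `(4, 0)` is impossible
  have hj0 : j ≠ 0 := by
    rintro rfl
    have hi : i = 4 := by omega
    subst hi
    have h4 : aeval f ((X - 1 : K[X]) ^ 4) = 0 := by
      rw [hij] at hCH
      simpa using hCH
    obtain ⟨a, b, hab⟩ : IsCoprime ((X - 1 : K[X]) ^ 3) (X ^ 2 + X + 1) := hcop.pow_left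
    have hid : a * (X - 1 : K[X]) ^ 4 + b * (X ^ 3 - 1) = X - 1 := by
      rw [← hfac]
      linear_combination (X - 1 : K[X]) * hab
    have h1 : aeval f (X - 1 : K[X]) = 0 := by
      rw [← hid, map_add, map_mul, map_mul, h4, h3z, mul_zero, mul_zero, add_zero]
    apply hf1
    have h2 : f - 1 = 0 := by simpa using h1
    exact sub_eq_zero.1 h2
  -- the case `(0, 2)` forces `f ^ 2 + f + 1 = 0`
  have hj2 : j = 2 → aeval f (X ^ 2 + X + 1 : K[X]) = 0 := by
    rintro rfl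
    have hi : i = 0 := by omega
    subst hi
    have h4 : aeval f ((X ^ 2 + X + 1 : K[X]) ^ 2) = 0 := by
      rw [hij] at hCH
      simpa using hCH
    obtain ⟨a, b, hab⟩ := hcop
    have hid : a * (X ^ 3 - 1 : K[X]) + b * (X ^ 2 + X + 1) ^ 2 = X ^ 2 + X + 1 := by
      rw [← hfac]
      linear_combination (X ^ 2 + X + 1 : K[X]) * hab
    rw [← hid, map_add, map_mul, map_mul, h4, h3z, mul_zero, mul_zero, add_zero]
  -- the case `(2, 1)` forces `f ^ 2 + f + 1 ≠ 0`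
  have hj1 : j = 1 → aeval f (X ^ 2 + X + 1 : K[X]) ≠ 0 := by
    rintro rfl h0
    have hi : i = 2 := by omega
    subst hi
    have hdvd : (X - 1 : K[X]) ∣ f.charpoly := by
      rw [hij]
      exact Dvd.intro _ (by ring : (X - 1 : K[X]) * ((X - 1) * (X ^ 2 + X + 1) ^ 1) = _)
    obtain ⟨v, hv, hv0⟩ := Cfsg.Agent.Lib.Helper40.exists_ne_zero_aeval_eq_zero f _ hL hdvd
    apply hnd
    refine (Cfsg.Agent.Lib.Helper40.aeval_eq_zero_iff_dvd f v _ hL hv hv0 _).1 ?_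
    rw [h0]
    rfl
  have hj : j = 1 ∨ j = 2 := by omega
  constructor
  · intro h0
    rcases hj with rfl | rfl
    · exact absurd h0 (hj1 rfl)
    · have hi : i = 0 := by omega
      rw [hij, hi, pow_zero, one_mul]
  · intro h0
    rcases hj with rfl | rfl
    · have hi : i = 2 := by omega
      rw [hij, hi, pow_one]
    · exact absurd (hj2 rfl) h0

end endo

section mats

variable {F : Type u} [Field F]

theorem pos3_aeval_toLin' (M : M4 F) (q : F[X]) :
    aeval (Matrix.toLin' M) q = Matrix.toLin' (aeval M q) :=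
  Polynomial.aeval_algHom_apply (Matrix.toLinAlgEquiv' : M4 F ≃ₐ[F] _).toAlgHom M q

/-- Matrix version of `pos3_charpoly`. -/
theorem pos3_charpoly_mat (hQ : Irreducible (X ^ 2 + X + 1 : F[X])) (h3 : (3 : F) ≠ 0)
    (M : M4 F) (hM3 : M ^ 3 = 1) (hM1 : M ≠ 1) :
    (M * M + M + 1 = 0 → M.charpoly = (X ^ 2 + X + 1) ^ 2) ∧
    (M * M + M + 1 ≠ 0 → M.charpoly = (X - 1) ^ 2 * (X ^ 2 + X + 1)) := by
  have hf3 : (Matrix.toLin' M) ^ 3 = 1 := by
    change Matrix.toLinAlgEquiv' M ^ 3 = 1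
    rw [← map_pow, hM3, map_one]
  have hf1 : Matrix.toLin' M ≠ 1 := by
    intro h
    apply hM1
    apply Matrix.toLin'.injective
    rw [h, Matrix.toLin'_one]
    rfl
  have hV : Module.finrank F (Fin 4 → F) = 4 := by simp
  have hae : aeval (Matrix.toLin' M) (X ^ 2 + X + 1 : F[X]) = 0 ↔ M * M + M + 1 = 0 := by
    rw [pos3_aeval_toLin']
    have : aeval M (X ^ 2 + X + 1 : F[X]) = M * M + M + 1 := by simp [pow_two]
    rw [this]
    constructor
    · intro h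
      apply Matrix.toLin'.injective
      rw [h, map_zero]
    · intro h
      rw [h, map_zero]
  obtain ⟨ha, hb⟩ := pos3_charpoly hQ h3 hV (Matrix.toLin' M) hf3 hf1
  rw [Matrix.charpoly_toLin'] at ha hb
  exact ⟨fun h => ha (hae.2 h), fun h => hb (fun h' => h (hae.1 h'))⟩

/-- `2 • hA`. -/
def mA (ι : F) : M4 F :=
  !![-1 + ι, 0, -1 + ι, 0; 0, -1 + ι, 0, -1 + ι; 1 + ι, 0, -1 - ι, 0; 0, 1 + ι, 0, -1 - ι]
/-- `2 • hB`. -/
def mB (ι : F) : M4 F := !![-ι, -ι, -ι, -ι; -1, 1, -1, 1; -1, -1, 1, 1; ι, -ι, -ι, ι]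
/-- `(2 • hB) ^ 2 / 2`. -/
def mC (ι : F) : M4 F := !![ι, -1, -1, -ι; ι, 1, -1, ι; ι, -1, 1, ι; ι, 1, 1, -ι]

theorem hA_eq (ι : F) : hA ι = (2 : F)⁻¹ • mA ι := rfl
theorem hB_eq (ι : F) : hB ι = (2 : F)⁻¹ • mB ι := rfl

theorem mA_sq {ι : F} (hι : ι ^ 2 = -1) :
    mA ι * mA ι = (-2 : F) • mA ι + (-4 : F) • (1 : M4 F) := by
  ext i j
  fin_cases i <;> fin_cases j <;>
    simp [mA, Matrix.mul_apply, Fin.sum_univ_four] <;>
    first | ring1 | linear_combination (2 : F) * hι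

theorem mB_sq {ι : F} (hι : ι ^ 2 = -1) : mB ι * mB ι = (2 : F) • mC ι := by
  have hι' : ι * ι = -1 := by rw [← hι]; ring
  ext i j
  fin_cases i <;> fin_cases j <;>
    simp [mB, mC, Matrix.mul_apply, Fin.sum_univ_four, hι'] <;> ring

theorem mC_mB {ι : F} (hι : ι ^ 2 = -1) : mC ι * mB ι = (4 : F) • (1 : M4 F) := by
  have hι' : ι * ι = -1 := by rw [← hι]; ring
  ext i j
  fin_cases i <;> fin_cases j <;>
    simp [mB, mC, Matrix.mul_apply, Fin.sum_univ_four, hι'] <;> ring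

theorem hA_quad {ι : F} (h2 : (2 : F) ≠ 0) (hι : ι ^ 2 = -1) :
    hA ι * hA ι + hA ι + 1 = 0 := by
  rw [hA_eq, Matrix.smul_mul, Matrix.mul_smul, mA_sq hι, smul_smul, smul_add, smul_smul,
    smul_smul]
  have e1 : (2 : F)⁻¹ * (2 : F)⁻¹ * (-2) = -(2 : F)⁻¹ := by field_simp
  have e2 : (2 : F)⁻¹ * (2 : F)⁻¹ * (-4) = -1 := by field_simp; norm_num
  rw [e1, e2]
  simp

theorem hA_pow3 {ι : F} (h2 : (2 : F) ≠ 0) (hι : ι ^ 2 = -1) : hA ι ^ 3 = 1 := by
  have h := hA_quad h2 hι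
  have e : hA ι ^ 3 = (hA ι - 1) * (hA ι * hA ι + hA ι + 1) + 1 := by noncomm_ring
  rw [e, h, mul_zero, zero_add]

theorem hA_ne_one {ι : F} (h2 : (2 : F) ≠ 0) (h3 : (3 : F) ≠ 0) (hι : ι ^ 2 = -1) :
    hA ι ≠ 1 := by
  intro h
  have hq := hA_quad h2 hι
  rw [h] at hq
  have h00 := congrFun (congrFun hq 0) 0
  apply h3
  simp at h00
  linear_combination h00

theorem hB_sq {ι : F} (h2 : (2 : F) ≠ 0) (hι : ι ^ 2 = -1) :
    hB ι * hB ι = (2 : F)⁻¹ • mC ι := by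
  rw [hB_eq, Matrix.smul_mul, Matrix.mul_smul, mB_sq hι, smul_smul, smul_smul]
  congr 1
  field_simp

theorem hB_pow3 {ι : F} (h2 : (2 : F) ≠ 0) (hι : ι ^ 2 = -1) : hB ι ^ 3 = 1 := by
  have e : hB ι ^ 3 = (hB ι * hB ι) * hB ι := by simp [pow_succ]
  rw [e, hB_sq h2 hι, hB_eq, Matrix.smul_mul, Matrix.mul_smul, mC_mB hι, smul_smul, smul_smul]
  have h4 : (2 : F)⁻¹ * (2 : F)⁻¹ * 4 = 1 := by
    field_simp
    norm_num
  rw [h4, one_smul]

theorem hB_ne_one {ι : F} (h2 : (2 : F) ≠ 0) (hι : ι ^ 2 = -1) : hB ι ≠ 1 := by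
  intro h
  have h01 := congrFun (congrFun h 0) 1
  have hι0 : ι ≠ 0 := by
    rintro rfl
    norm_num at hι
  simp [hB, h2, hι0] at h01

theorem hB_quad_ne {ι : F} (h2 : (2 : F) ≠ 0) (hι : ι ^ 2 = -1) :
    hB ι * hB ι + hB ι + 1 ≠ 0 := by
  intro h
  rw [hB_sq h2 hι, hB_eq] at h
  have h11 := congrFun (congrFun h 1) 1
  simp [mB, mC] at h11
  apply h2
  have e : (2 : F)⁻¹ + (2 : F)⁻¹ = 1 := by field_simp; norm_num
  linear_combination h11 - e

/-- Two semisimple matrices with the same characteristic polynomial, one of them a scalar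
multiple of an element of `SL_4`, are conjugate under `SL_4` (after Helper21's `pkgPos5_of`). -/
theorem pos3_conj [Fintype F] (x : GL (Fin 4) F) (c : F)
    (hc0 : c ≠ 0) (T : M4 F)
    (hsy : Module.End.IsSemisimple (Matrix.toLin' (c⁻¹ • (x : M4 F))))
    (hsT : Module.End.IsSemisimple (Matrix.toLin' T))
    (hch : (c⁻¹ • (x : M4 F)).charpoly = T.charpoly) :
    ∃ Pu : GL (Fin 4) F, Pu ∈ SL4 F ∧ ((Pu * x * Pu⁻¹ : GL (Fin 4) F) : M4 F) = c • T := by
  classical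
  have hxy : (x : M4 F) = c • (c⁻¹ • (x : M4 F)) := by
    rw [smul_smul, mul_inv_cancel₀ hc0, one_smul]
  obtain ⟨e, he⟩ := Cfsg.Agent.Lib.Helper40.exists_similar_of_charpoly_eq _ T hsy hsT hch
  have hdet_e : IsUnit (LinearMap.det (e : (Fin 4 → F) →ₗ[F] (Fin 4 → F))) := e.isUnit_det'
  obtain ⟨k, hcomm, hkdet⟩ := Cfsg.Agent.Lib.Helper40.exists_commute_det_eq
    (Matrix.toLin' (c⁻¹ • (x : M4 F))) hsy
    (LinearMap.det (e : (Fin 4 → F) →ₗ[F] (Fin 4 → F)))⁻¹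
  let e' : (Fin 4 → F) →ₗ[F] (Fin 4 → F) := (e : (Fin 4 → F) →ₗ[F] (Fin 4 → F)) ∘ₗ k
  have hdet' : LinearMap.det e' = 1 := by
    simp only [e']
    rw [LinearMap.det_comp, hkdet]
    exact mul_inv_cancel₀ hdet_e.ne_zero
  have hint : ∀ v, e' (Matrix.toLin' (c⁻¹ • (x : M4 F)) v) = Matrix.toLin' T (e' v) := by
    intro v
    simp only [e', LinearMap.comp_apply, hcomm, LinearEquiv.coe_coe, he]
  let P : M4 F := LinearMap.toMatrix' e'
  have hPdet : P.det = 1 := by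
    simp only [P]
    rw [LinearMap.det_toMatrix', hdet']
  have hPy : P * (c⁻¹ • (x : M4 F)) = T * P := by
    apply Matrix.toLin'.injective
    apply LinearMap.ext
    intro v
    simp only [P, Matrix.toLin'_mul, Matrix.toLin'_toMatrix', LinearMap.comp_apply]
    exact hint v
  have hPx : P * (x : M4 F) = (c • T) * P := by
    rw [hxy, Matrix.mul_smul, hPy, Matrix.smul_mul]
  let Pu : GL (Fin 4) F := Matrix.nonsingInvUnit P (by rw [hPdet]; exact isUnit_one)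
  have hPu : (Pu : M4 F) = P := rfl
  refine ⟨Pu, ?_, ?_⟩
  · show Matrix.GeneralLinearGroup.det Pu = 1
    apply Units.ext
    simp [hPu, hPdet]
  · rw [Units.val_mul, Units.val_mul, hPu, hPx, Matrix.mul_assoc]
    have h1 : P * ((Pu⁻¹ : GL (Fin 4) F) : M4 F) = 1 := by
      rw [← hPu]
      exact Units.mul_inv Pu
    rw [h1, Matrix.mul_one]

end mats

/-- [POS3]. -/
theorem pkgPos3_of (hN : PkgNH.{u}) : PkgPos3.{u} := by
  intro F _ _ p _ _ hcard hp4 hp3 ι hι x hx hz hns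
  classical
  obtain ⟨z, hz⟩ := hz
  have hp : p.Prime := Fact.out
  have hp2 : p ≠ 2 := by
    rintro rfl
    norm_num at hp4
  have hp3' : p ≠ 3 := by
    rintro rfl
    norm_num at hp3
  have h2 : (2 : F) ≠ 0 := by
    intro h
    have h' : ((2 : ℕ) : F) = 0 := by exact_mod_cast h
    rw [CharP.cast_eq_zero_iff F p 2] at h'
    exact hp2 ((Nat.prime_dvd_prime_iff_eq hp Nat.prime_two).1 h')
  have h3n : ((3 : ℕ) : F) ≠ 0 := by
    intro h
    rw [CharP.cast_eq_zero_iff F p 3] at h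
    exact hp3' ((Nat.prime_dvd_prime_iff_eq hp (by norm_num)).1 h)
  have h3 : (3 : F) ≠ 0 := by exact_mod_cast h3n
  have hdet : (x : M4 F).det = 1 := by
    have h1 : Matrix.GeneralLinearGroup.det x = 1 := hx
    have h2 := congrArg Units.val h1
    simpa using h2
  have hz4 : z ^ 4 = 1 := by
    have h := congrArg Matrix.det hz
    rw [Units.val_pow_eq_pow_val, Matrix.det_pow, hdet, one_pow, Matrix.det_smul,
      Matrix.det_one] at h
    simpa using h.symm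
  have hz0 : z ≠ 0 := by
    rintro rfl
    simp at hz4
  -- a cube root of `z`
  have hc0 : z ^ 3 ≠ 0 := pow_ne_zero 3 hz0
  have hc3 : (z ^ 3) ^ 3 = z := by linear_combination (z ^ 5 + z) * hz4
  have hy3 : ((z ^ 3)⁻¹ • (x : M4 F)) ^ 3 = 1 := by
    rw [_root_.smul_pow, ← Units.val_pow_eq_pow_val, hz, smul_smul]
    have h1 : (z ^ 3)⁻¹ ^ 3 * z = 1 := by
      rw [inv_pow, hc3, inv_mul_cancel₀ hz0]
    rw [h1, one_smul]
  have hy1 : (z ^ 3)⁻¹ • (x : M4 F) ≠ 1 := by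
    intro h
    apply hns
    refine ⟨z ^ 3, ?_⟩
    rw [← h, smul_smul, mul_inv_cancel₀ hc0, one_smul]
  -- `X ^ 2 + X + 1` is irreducible
  have hcop : p.Coprime 3 := (Nat.coprime_primes hp (by norm_num)).2 hp3'
  have hord : orderOf ((p : ℕ) : ZMod 3) = 2 := by
    have h2' : ((p : ℕ) : ZMod 3) = 2 := by
      have : ((p : ℕ) : ZMod 3) = ((2 : ℕ) : ZMod 3) :=
        (ZMod.natCast_eq_natCast_iff' p 2 3).2 (by omega)
      simpa using this
    rw [h2']
    exact orderOf_eq_prime (by decide) (by decide)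
  have hirr : Irreducible (cyclotomic 3 F) := by
    apply Polynomial.irreducible_of_dvd_cyclotomic_of_natDegree (p := p) (f := 1) (n := 3)
      (by simpa using hcard) hcop dvd_rfl
    rw [natDegree_cyclotomic, ← orderOf_units, ZMod.coe_unitOfCoprime, pow_one, hord]
    decide
  have hQ : Irreducible (X ^ 2 + X + 1 : F[X]) := by
    rw [← cyclotomic_three]
    exact hirr
  have hsy : Module.End.IsSemisimple (Matrix.toLin' ((z ^ 3)⁻¹ • (x : M4 F))) :=
    Cfsg.Agent.Lib.Helper40.isSemisimple_of_pow_eq_one _ 3 h3n hy3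
  obtain ⟨ya, yb⟩ := pos3_charpoly_mat hQ h3 _ hy3 hy1
  by_cases hcase : ((z ^ 3)⁻¹ • (x : M4 F)) * ((z ^ 3)⁻¹ • (x : M4 F)) +
      (z ^ 3)⁻¹ • (x : M4 F) + 1 = 0
  · have hT3 := hA_pow3 h2 hι
    have hsT : Module.End.IsSemisimple (Matrix.toLin' (hA ι)) :=
      Cfsg.Agent.Lib.Helper40.isSemisimple_of_pow_eq_one (hA ι) 3 h3n hT3
    have hch : ((z ^ 3)⁻¹ • (x : M4 F)).charpoly = (hA ι).charpoly := by
      rw [ya hcase, (pos3_charpoly_mat hQ h3 (hA ι) hT3 (hA_ne_one h2 h3 hι)).1 (hA_quad h2 hι)]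
    obtain ⟨Pu, hPu, hPx⟩ := pos3_conj x (z ^ 3) hc0 (hA ι) hsy hsT hch
    refine ⟨Pu⁻¹, Subgroup.inv_mem _ hPu, ?_⟩
    rw [inv_inv]
    exact hN F h2 ι hι (Pu * x * Pu⁻¹) (z ^ 3) (Or.inl hPx)
  · have hT3 := hB_pow3 h2 hι
    have hsT : Module.End.IsSemisimple (Matrix.toLin' (hB ι)) :=
      Cfsg.Agent.Lib.Helper40.isSemisimple_of_pow_eq_one (hB ι) 3 h3n hT3
    have hch : ((z ^ 3)⁻¹ • (x : M4 F)).charpoly = (hB ι).charpoly := by
      rw [yb hcase, (pos3_charpoly_mat hQ h3 (hB ι) hT3 (hB_ne_one h2 hι)).2 (hB_quad_ne h2 hι)]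
    obtain ⟨Pu, hPu, hPx⟩ := pos3_conj x (z ^ 3) hc0 (hB ι) hsy hsT hch
    refine ⟨Pu⁻¹, Subgroup.inv_mem _ hPu, ?_⟩
    rw [inv_inv]
    exact hN F h2 ι hι (Pu * x * Pu⁻¹) (z ^ 3) (Or.inr hPx)

end Cfsg.Agent.Lib.Helper82.C64
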